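import Mathlib
import Cfsg.Agent.CharBasics.Central
import Cfsg.Agent.CharBasics.Induced
import Cfsg.Agent.Exceptional.FrobChar

/-!
Characters of a group sorted by their restriction to a central subgroup.
-/

set_option autoImplicit false

namespace CfsgLib.OddCoh

open CfsgLib.CharBasics CfsgLib.Exceptional
open scoped ComplexConjugate

universe u

variable {K : Type u} [Group K] [Fintype K] (Z : Subgroup K) (hZ : Z ≤ Subgroup.center K)

include hZ in
/-- Schur on a central subgroup. -/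
theorem norm_apply_central (θ : Cfsg.IrrCharacter K) {z : K} (hz : z ∈ Z) :
    ‖(θ : K → ℂ) z‖ = (Cfsg.charDegree (θ : K → ℂ) : ℝ) := by
  have h := center_mul θ.2 (hZ hz) z⁻¹
  have hc := isCharacter_of_irr θ.2
  rw [mul_inv_cancel, apply_one hc, apply_inv hc, Complex.mul_conj'] at h
  have h' : ((Cfsg.charDegree (θ : K → ℂ) : ℝ) * Cfsg.charDegree (θ : K → ℂ)) = ‖(θ : K → ℂ) z‖ ^ 2 := by
    exact_mod_cast h
  nlinarith [norm_nonneg ((θ : K → ℂ) z)]

include hZ in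
theorem sq_degree_mul_le (θ : Cfsg.IrrCharacter K) :
    Cfsg.charDegree (θ : K → ℂ) ^ 2 * Nat.card Z ≤ Nat.card K := by
  classical
  have h := sum_normSq_irr θ
  have h1 : ∑ z ∈ Finset.univ.filter (fun k : K => k ∈ Z), ‖(θ : K → ℂ) z‖ ^ 2 ≤
      ∑ k : K, ‖(θ : K → ℂ) k‖ ^ 2 :=
    Finset.sum_le_sum_of_subset_of_nonneg (Finset.subset_univ _) fun _ _ _ => sq_nonneg _
  rw [h, Finset.sum_congr rfl fun z hz => by rw [norm_apply_central Z hZ θ (Finset.mem_filter.1 hz).2],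
    Finset.sum_const, nsmul_eq_mul] at h1
  have e : (Finset.univ.filter fun k : K => k ∈ Z).card = Nat.card Z := by
    rw [Nat.card_eq_fintype_card, Fintype.card_subtype]
  rw [e, mul_comm] at h1
  exact_mod_cast h1

include hZ in
theorem sum_central (θ : Cfsg.IrrCharacter K) [Fintype Z] :
    (∀ z ∈ Z, (θ : K → ℂ) z = (θ : K → ℂ) 1) ∨ ∑ z : Z, (θ : K → ℂ) z = 0 := by
  classical
  by_contra h
  push Not at h
  obtain ⟨⟨w, hw, hwne⟩, hne⟩ := h
  apply hwne
  have hmul : (θ : K → ℂ) 1 * ∑ z : Z, (θ : K → ℂ) z = (θ : K → ℂ) w * ∑ z : Z, (θ : K → ℂ) z := by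
    conv_lhs => rw [← Equiv.sum_comp (Equiv.mulLeft (⟨w, hw⟩ : Z)) (fun z : Z => (θ : K → ℂ) z)]
    rw [Finset.mul_sum, Finset.mul_sum]
    refine Finset.sum_congr rfl fun z _ => ?_
    show (θ : K → ℂ) 1 * (θ : K → ℂ) (w * z) = _
    exact center_mul θ.2 (hZ hw) z
  exact (mul_right_cancel₀ hne hmul).symm

open Classical in
include hZ in
/-- The squared degrees of the characters with `Z` in the kernel add up to the index of `Z`. -/
theorem sum_trivial_sq [Fintype (Cfsg.IrrCharacter K)] :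
    Nat.card Z * ∑ θ : Cfsg.IrrCharacter K,
        (if Rel Z (θ : K → ℂ) then 0 else Cfsg.charDegree (θ : K → ℂ) ^ 2) = Nat.card K := by
  classical
  haveI := Fintype.ofFinite Z
  have h : ∑ θ : Cfsg.IrrCharacter K, (Cfsg.charDegree (θ : K → ℂ) : ℂ) * ∑ z : Z, (θ : K → ℂ) z =
      (Nat.card K : ℂ) := by
    simp only [Finset.mul_sum]
    rw [Finset.sum_comm, Finset.sum_eq_single (1 : Z)]
    · rw [← sum_sq_degree (G := K), Nat.cast_sum]
      refine Finset.sum_congr rfl fun θ _ => ?_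
      rw [Subgroup.coe_one, apply_one (isCharacter_of_irr θ.2)]
      push_cast; ring
    · exact fun z _ hz => sum_mul_degree (fun e => hz (Subtype.ext e))
    · exact fun h => absurd (Finset.mem_univ _) h
  have h2 : ∀ θ : Cfsg.IrrCharacter K, (Cfsg.charDegree (θ : K → ℂ) : ℂ) * ∑ z : Z, (θ : K → ℂ) z =
      ((Nat.card Z * (if Rel Z (θ : K → ℂ) then 0 else Cfsg.charDegree (θ : K → ℂ) ^ 2) : ℕ) : ℂ) := fun θ => by
    by_cases hr : Rel Z (θ : K → ℂ)
    · rw [if_pos hr, Nat.mul_zero, Nat.cast_zero]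
      rcases sum_central Z hZ θ with h' | h'
      · obtain ⟨k, hk, hk'⟩ := hr
        exact absurd (h' k hk) hk'
      · rw [h', mul_zero]
    · rw [if_neg hr, Finset.sum_congr rfl (fun z _ => not_rel hr z.2), Finset.sum_const, Finset.card_univ,
        ← Nat.card_eq_fintype_card, nsmul_eq_mul, apply_one (isCharacter_of_irr θ.2)]
      push_cast; ring
  rw [Finset.sum_congr rfl (fun θ _ => h2 θ), ← Nat.cast_sum, ← Finset.mul_sum] at h
  exact_mod_cast h

open Classical in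
include hZ in
theorem sum_nontrivial_sq [Fintype (Cfsg.IrrCharacter K)] :
    ∑ θ : Cfsg.IrrCharacter K, (if Rel Z (θ : K → ℂ) then Cfsg.charDegree (θ : K → ℂ) ^ 2 else 0) =
      Z.index * (Nat.card Z - 1) := by
  classical
  have h1 := sum_trivial_sq Z hZ
  rw [← Subgroup.card_mul_index Z, Nat.mul_left_cancel_iff Nat.card_pos] at h1
  have h2 : ∑ θ : Cfsg.IrrCharacter K, (if Rel Z (θ : K → ℂ) then Cfsg.charDegree (θ : K → ℂ) ^ 2 else 0) +
      ∑ θ : Cfsg.IrrCharacter K, (if Rel Z (θ : K → ℂ) then 0 else Cfsg.charDegree (θ : K → ℂ) ^ 2) = Nat.card K := by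
    rw [← Finset.sum_add_distrib, ← sum_sq_degree (G := K)]
    exact Finset.sum_congr rfl fun θ _ => by split_ifs <;> simp
  rw [h1, ← Subgroup.card_mul_index Z] at h2
  obtain ⟨c, hc⟩ := Nat.exists_eq_succ_of_ne_zero (Nat.card_pos (α := Z)).ne'
  rw [hc] at h2 ⊢
  simp only [Nat.succ_sub_succ_eq_sub, tsub_zero, Nat.succ_mul] at h2 ⊢
  rw [mul_comm]
  omega

open Classical in
include hZ in
/-- In a `p`-group the squares of the degrees below a given one are divisible by its square. -/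
theorem sq_dvd_below [Fintype (Cfsg.IrrCharacter K)] {p : ℕ} [Fact p.Prime] (hp : IsPGroup p K)
    (θ₀ : Cfsg.IrrCharacter K) :
    Cfsg.charDegree (θ₀ : K → ℂ) ^ 2 ∣ ∑ θ : Cfsg.IrrCharacter K,
      (if Rel Z (θ : K → ℂ) ∧ Cfsg.charDegree (θ : K → ℂ) < Cfsg.charDegree (θ₀ : K → ℂ)
        then Cfsg.charDegree (θ : K → ℂ) ^ 2 else 0) := by
  classical
  obtain ⟨n, hn⟩ := IsPGroup.iff_card.1 hp
  have hpow : ∀ θ : Cfsg.IrrCharacter K, ∃ i, Cfsg.charDegree (θ : K → ℂ) = p ^ i := fun θ => by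
    obtain ⟨i, -, hi⟩ := (Nat.dvd_prime_pow Fact.out).1 (hn ▸ degree_dvd θ)
    exact ⟨i, hi⟩
  obtain ⟨m, hm⟩ := hpow θ₀
  obtain ⟨c, -, hc⟩ := (Nat.dvd_prime_pow Fact.out).1 (hn ▸ Z.index_dvd_card)
  have h2m : 2 * m ≤ c := by
    have h := sq_degree_mul_le Z hZ θ₀
    rw [← Subgroup.card_mul_index Z, mul_comm (Nat.card Z)] at h
    have h' := Nat.le_of_mul_le_mul_right h Nat.card_pos
    rw [hc, hm, ← pow_mul, mul_comm] at h'
    exact (Nat.pow_le_pow_iff_right (Fact.out : p.Prime).one_lt).1 h'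
  have htot : p ^ (2 * m) ∣ ∑ θ : Cfsg.IrrCharacter K,
      (if Rel Z (θ : K → ℂ) then Cfsg.charDegree (θ : K → ℂ) ^ 2 else 0) := by
    rw [sum_nontrivial_sq Z hZ, hc]
    exact (Nat.pow_dvd_pow p h2m).mul_right _
  rw [hm, ← pow_mul, mul_comm m 2]
  have hsplit : ∑ θ : Cfsg.IrrCharacter K, (if Rel Z (θ : K → ℂ) then Cfsg.charDegree (θ : K → ℂ) ^ 2 else 0) =
      ∑ θ : Cfsg.IrrCharacter K, (if Rel Z (θ : K → ℂ) ∧ Cfsg.charDegree (θ : K → ℂ) < p ^ m
        then Cfsg.charDegree (θ : K → ℂ) ^ 2 else 0) +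
      ∑ θ : Cfsg.IrrCharacter K, (if Rel Z (θ : K → ℂ) ∧ ¬ Cfsg.charDegree (θ : K → ℂ) < p ^ m
        then Cfsg.charDegree (θ : K → ℂ) ^ 2 else 0) := by
    rw [← Finset.sum_add_distrib]
    exact Finset.sum_congr rfl fun θ _ => by split_ifs <;> simp_all
  refine (Nat.dvd_add_left (Finset.dvd_sum fun θ _ => ?_)).1 (hsplit ▸ htot)
  split_ifs with h
  · obtain ⟨i, hi⟩ := hpow θ
    rw [hi] at h ⊢
    rw [← pow_mul]
    refine Nat.pow_dvd_pow p ?_
    have := (Nat.pow_le_pow_iff_right (Fact.out : p.Prime).one_lt).1 (not_lt.1 h.2)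
    omega
  · exact dvd_zero _

end CfsgLib.OddCoh
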