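import Mathlib
import Cfsg.Agent.CharBasics.Central

/-!
A congruence for character values at central elements of a trivial-intersection `p`-subgroup
whose local overgroup has odd order.
-/

set_option autoImplicit false

namespace CfsgLib.OddCoh

open CfsgLib.CharBasics

universe u

variable {G : Type u} [Group G] [Fintype G]

theorem int_dvd_of_isIntegral (a : ℤ) (b : ℕ) (hb : b ≠ 0) (h : IsIntegral ℤ ((a : ℂ) / b)) : (b : ℤ) ∣ a := by
  rcases Int.natAbs_eq a with e | e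
  · rw [e] at h ⊢
    exact Int.natCast_dvd_natCast.2 (nat_dvd_of_isIntegral _ _ hb (by simpa using h))
  · rw [e] at h ⊢
    refine dvd_neg.2 (Int.natCast_dvd_natCast.2 (nat_dvd_of_isIntegral _ _ hb ?_))
    have h' := h.neg
    push_cast at h'
    simpa [neg_div] using h'

/-- The part outside the local subgroup of a bi-invariant sum is divisible by the square of the order. -/
theorem sum_outside (P L : Subgroup G) [DecidablePred (· ∈ L)] (hPL : P ≤ L)
    (hTI : ∀ x : G, x ∉ L → ∀ k ∈ P, x * k * x⁻¹ ∈ P → k = 1)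
    (f : G → ℂ) (hint : ∀ x, IsIntegral ℤ (f x))
    (hinv : ∀ k ∈ P, ∀ k' ∈ P, ∀ x, f (k * x * k') = f x) :
    ∃ A : ℂ, IsIntegral ℤ A ∧
      ∑ x ∈ Finset.univ.filter (fun x : G => x ∉ L), f x = ((Nat.card P : ℂ) ^ 2) * A := by
  classical
  let s : Finset G := Finset.univ.filter (fun x : G => x ∉ L)
  let q : G → DoubleCoset.Quotient (P : Set G) (P : Set G) := DoubleCoset.mk P P
  refine ⟨∑ c ∈ s.image q, f c.out, IsIntegral.sum _ fun c _ => hint _, ?_⟩
  rw [Finset.mul_sum, ← Finset.sum_fiberwise_of_maps_to (g := q) (fun x hx => Finset.mem_image_of_mem q hx)]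
  refine Finset.sum_congr rfl fun c hc => ?_
  obtain ⟨x₀, hx₀, rfl⟩ := Finset.mem_image.1 hc
  obtain ⟨a, b, ha, hb, hout⟩ := DoubleCoset.mk_out_eq_mul P P x₀
  have hx₀L : x₀ ∉ L := (Finset.mem_filter.1 hx₀).2
  have hfib : s.filter (fun x => q x = q x₀) =
      (Finset.univ : Finset (P × P)).image (fun p => (p.1 : G) * x₀ * p.2) := by
    ext x
    simp only [s, Finset.mem_filter, Finset.mem_univ, true_and, Finset.mem_image, Prod.exists]
    constructor
    · rintro ⟨-, hx⟩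
      obtain ⟨k, hk, k', hk', e⟩ := (DoubleCoset.eq P P x₀ x).1 hx.symm
      exact ⟨⟨k, hk⟩, ⟨k', hk'⟩, e.symm⟩
    · rintro ⟨k, k', rfl⟩
      refine ⟨fun h => hx₀L ?_, ((DoubleCoset.eq P P x₀ _).2 ⟨k, k.2, k', k'.2, rfl⟩).symm⟩
      have := L.mul_mem (L.mul_mem (L.inv_mem (hPL k.2)) h) (L.inv_mem (hPL k'.2))
      simpa [mul_assoc] using this
  have hinj : Function.Injective (fun p : P × P => (p.1 : G) * x₀ * p.2) := by
    rintro ⟨k, k'⟩ ⟨l, l'⟩ e
    simp only at e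
    have e1 : x₀ * ((k' : G) * (l' : G)⁻¹) * x₀⁻¹ = (k : G)⁻¹ * l := by
      calc x₀ * ((k' : G) * (l' : G)⁻¹) * x₀⁻¹
          = (k : G)⁻¹ * ((k : G) * x₀ * k') * (l' : G)⁻¹ * x₀⁻¹ := by group
        _ = (k : G)⁻¹ * ((l : G) * x₀ * l') * (l' : G)⁻¹ * x₀⁻¹ := by rw [e]
        _ = (k : G)⁻¹ * l := by group
    have h0 := hTI x₀ hx₀L _ (P.mul_mem k'.2 (P.inv_mem l'.2)) (by rw [e1]; exact P.mul_mem (P.inv_mem k.2) l.2)
    rw [h0] at e1
    have h1 : (k : G)⁻¹ * l = 1 := by rw [← e1]; group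
    exact Prod.ext (Subtype.ext (inv_mul_eq_one.1 h1)) (Subtype.ext (mul_inv_eq_one.1 h0))
  have hval : ∀ p : P × P, f ((p.1 : G) * x₀ * p.2) = f x₀ := fun p => hinv _ p.1.2 _ p.2.2 _
  rw [hfib, Finset.sum_image fun p _ p' _ h => hinj h, Finset.sum_congr rfl (fun p _ => hval p), Finset.sum_const,
    Finset.card_univ, Fintype.card_prod, nsmul_eq_mul, hout, hinv a ha b hb]
  simp [Nat.card_eq_fintype_card, pow_two]

/-- `ψ 1 ≡ ψ z` modulo the order of the `p`-group. -/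
theorem value_congr (P L Z : Subgroup G) (hPL : P ≤ L) (hodd : Odd (Nat.card L))
    (hcop : (Nat.card P).Coprime (P.relIndex L))
    (hTI : ∀ x : G, x ∉ L → ∀ k ∈ P, x * k * x⁻¹ ∈ P → k = 1)
    (hZP : Z ≤ P) (hZn : ∀ x ∈ L, ∀ w ∈ Z, x * w * x⁻¹ ∈ Z) (hZc : ∀ w ∈ Z, ∀ k ∈ P, w * k = k * w)
    {ψ : G → ℂ} (hψ : Cfsg.IsIrrCharacter G ψ) {z : G} (hz : z ∈ Z) (hz1 : z ≠ 1)
    (hconst : ∀ w ∈ Z, w ≠ 1 → ψ w = ψ z) :
    ∃ n d : ℤ, ψ z = n ∧ ψ 1 = d ∧ (Nat.card P : ℤ) ∣ d - n := by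
  classical
  have hc := isCharacter_of_irr hψ
  set d := Cfsg.charDegree ψ
  have hd : ψ 1 = (d : ℂ) := apply_one hc
  haveI : Nontrivial Z := ⟨⟨⟨z, hz⟩, 1, fun e => hz1 (congrArg Subtype.val e)⟩⟩
  -- rationality
  obtain ⟨a, ha⟩ := classInner_characters_nat (isCharacter_restrict hc Z)
    (isCharacter_of_irr (isIrrCharacter_one (G := Z)))
  rw [classInner_one, ← Finset.add_sum_erase _ _ (Finset.mem_univ (1 : Z)),
    Finset.sum_congr rfl (g := fun _ => ψ z) (fun (w : Z) hw => hconst w w.2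
      (fun e => Finset.ne_of_mem_erase hw (Subtype.ext e))), Finset.sum_const,
    Finset.card_erase_of_mem (Finset.mem_univ _), Finset.card_univ, ← Nat.card_eq_fintype_card, nsmul_eq_mul,
    Subgroup.coe_one, hd, Nat.cast_sub Nat.card_pos, Nat.cast_one] at ha
  have hZ2 : 1 < Nat.card Z := Finite.one_lt_card
  have hZ0 : (Nat.card Z : ℂ) ≠ 0 := by simp [Nat.card_pos.ne']
  have hz' : ψ z = (((Nat.card Z * a : ℕ) : ℤ) - (d : ℤ) : ℤ) / ((Nat.card Z - 1 : ℕ) : ℂ) := by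
    rw [eq_div_iff (Nat.cast_ne_zero.2 (by omega : Nat.card Z - 1 ≠ 0)), Nat.cast_sub Nat.card_pos]
    push_cast
    field_simp at ha
    linear_combination ha
  obtain ⟨n, hn'⟩ := int_dvd_of_isIntegral _ _ (by omega : Nat.card Z - 1 ≠ 0)
    (hz' ▸ isIntegral_apply hc z)
  have hn : ψ z = (n : ℂ) := by
    rw [hz', hn', Int.cast_mul, Int.cast_natCast,
      mul_div_cancel_left₀ _ (Nat.cast_ne_zero.2 (by omega : Nat.card Z - 1 ≠ 0))]
  refine ⟨n, d, hn, by rw [hd]; simp, ?_⟩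
  -- the two sums
  have hzi : z⁻¹ ∈ Z := Z.inv_mem hz
  have hzi1 : z⁻¹ ≠ 1 := inv_ne_one.2 hz1
  have hsum : ∀ y ∈ Z, y ≠ 1 → ψ 1 * ∑ x : G, ψ (x * z * x⁻¹ * y) = (Nat.card G : ℂ) * n * n := fun y hy hy1 => by
    rw [sum_conj_apply_mul hψ, hconst y hy hy1, hn]
  have hinv : ∀ y ∈ Z, ∀ k ∈ P, ∀ k' ∈ P, ∀ x, ψ (k * x * k' * z * (k * x * k')⁻¹ * y) = ψ (x * z * x⁻¹ * y) := by
    intro y hy k hk k' hk' x
    have e1 : k' * z * k'⁻¹ = z := by rw [← hZc z hz k' hk']; group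
    have e2 : k⁻¹ * y * k = y := by rw [mul_assoc, hZc y hy k hk]; group
    calc ψ (k * x * k' * z * (k * x * k')⁻¹ * y)
        = ψ (k * (x * (k' * z * k'⁻¹) * x⁻¹ * (k⁻¹ * y * k)) * k⁻¹) := congrArg ψ (by group)
      _ = ψ (x * z * x⁻¹ * y) := by rw [isClassFunction hc, e1, e2]
  obtain ⟨A₁, hA₁, hs₁⟩ := sum_outside P L hPL hTI (fun x => ψ (x * z * x⁻¹ * z))
    (fun x => isIntegral_apply hc _) (fun k hk k' hk' x => hinv z hz k hk k' hk' x)
  obtain ⟨A₂, hA₂, hs₂⟩ := sum_outside P L hPL hTI (fun x => ψ (x * z * x⁻¹ * z⁻¹))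
    (fun x => isIntegral_apply hc _) (fun k hk k' hk' x => hinv z⁻¹ hzi k hk k' hk' x)
  set C := L ⊓ Subgroup.centralizer ({z} : Set G)
  have hin₁ : ∑ x ∈ Finset.univ.filter (fun x : G => x ∈ L), ψ (x * z * x⁻¹ * z) = (Nat.card L : ℂ) * n := by
    rw [Finset.sum_congr rfl (g := fun _ => (n : ℂ)) fun x hx => ?_, Finset.sum_const, nsmul_eq_mul,
      Nat.card_eq_fintype_card, Fintype.card_subtype]
    have hxL := (Finset.mem_filter.1 hx).2
    rw [← hn]
    refine hconst _ (Z.mul_mem (hZn x hxL z hz) hz) fun e => ?_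
    have e' : x * z * x⁻¹ = z⁻¹ := mul_eq_one_iff_eq_inv.1 e
    have hzL : z ∈ L := hPL (hZP hz)
    -- `x` inverts `z`; its square fixes it, and has odd order
    have h2 : Commute (x ^ 2) z := by
      show x ^ 2 * z = z * x ^ 2
      have e2 : x * z⁻¹ * x⁻¹ = z := by
        have := congrArg Inv.inv e'
        simpa [mul_assoc] using this
      calc x ^ 2 * z = x * (x * z * x⁻¹) * x⁻¹ * x ^ 2 := by simp [pow_two, mul_assoc]
        _ = z * x ^ 2 := by rw [e', e2]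
    have hox : Odd (orderOf x) := hodd.of_dvd_nat (Subgroup.orderOf_dvd_natCard L hxL)
    obtain ⟨m, hm⟩ := hox
    have hx2 : Commute x z := by
      have : x = (x ^ 2) ^ (m + 1) := by
        rw [← pow_mul, show 2 * (m + 1) = orderOf x + 1 by omega, pow_succ, pow_orderOf_eq_one, one_mul]
      rw [this]
      exact h2.pow_left _
    rw [hx2.eq, mul_inv_cancel_right] at e'
    have hoz : Odd (orderOf z) := hodd.of_dvd_nat (Subgroup.orderOf_dvd_natCard L hzL)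
    have : z ^ 2 = 1 := by rw [pow_two]; nth_rewrite 2 [e']; exact mul_inv_cancel z
    exact hz1 (orderOf_eq_one_iff.1 (Nat.eq_one_of_dvd_coprimes hoz.coprime_two_left
      (orderOf_dvd_of_pow_eq_one this) dvd_rfl))
  have hin₂ : ∑ x ∈ Finset.univ.filter (fun x : G => x ∈ L), ψ (x * z * x⁻¹ * z⁻¹) =
      (Nat.card L : ℂ) * n + (Nat.card C : ℂ) * ((d : ℂ) - n) := by
    have hv : ∀ x ∈ Finset.univ.filter (fun x : G => x ∈ L),
        ψ (x * z * x⁻¹ * z⁻¹) = (n : ℂ) + (if x ∈ C then (d : ℂ) - n else 0) := fun x hx => by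
      have hxL := (Finset.mem_filter.1 hx).2
      have hiff : x * z * x⁻¹ * z⁻¹ = 1 ↔ x ∈ C := by
        rw [mul_inv_eq_one, mul_inv_eq_iff_eq_mul, Subgroup.mem_inf, Subgroup.mem_centralizer_singleton_iff]
        exact ⟨fun h => ⟨hxL, h⟩, fun h => h.2⟩
      by_cases h : x ∈ C
      · rw [if_pos h, hiff.2 h, hd]; ring
      · rw [if_neg h, add_zero, ← hn]
        exact hconst _ (Z.mul_mem (hZn x hxL z hz) hzi) (fun e => h (hiff.1 e))
    rw [Finset.sum_congr rfl hv, Finset.sum_add_distrib, Finset.sum_const, nsmul_eq_mul, ← Finset.sum_filter,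
      Finset.sum_const, nsmul_eq_mul, Finset.filter_filter,
      Finset.filter_congr (fun x _ => (⟨fun h => h.2, fun h => ⟨h.1, h⟩⟩ : x ∈ L ∧ x ∈ C ↔ x ∈ C))]
    simp only [Nat.card_eq_fintype_card, Fintype.card_subtype]
  have key : (Nat.card C : ℂ) * ((d : ℂ) - n) = (Nat.card P : ℂ) ^ 2 * (A₁ - A₂) := by
    have h1 := hsum z hz hz1
    have h2 := hsum z⁻¹ hzi hzi1
    have h3 := mul_left_cancel₀ (apply_one_ne_zero hψ) (h1.trans h2.symm)
    rw [← Finset.sum_filter_add_sum_filter_not Finset.univ (fun x : G => x ∈ L) (fun x => ψ (x * z * x⁻¹ * z)),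
      ← Finset.sum_filter_add_sum_filter_not Finset.univ (fun x : G => x ∈ L) (fun x => ψ (x * z * x⁻¹ * z⁻¹)),
      hin₁, hin₂, hs₁, hs₂] at h3
    linear_combination -h3
  have hPC : P ≤ C := le_inf hPL fun k hk => Subgroup.mem_centralizer_singleton_iff.2 (hZc z hz k hk).symm
  obtain ⟨m, hm⟩ := Subgroup.card_dvd_of_le hPC
  have hmcop : (Nat.card P).Coprime m := by
    have hCL : Nat.card C ∣ Nat.card L := Subgroup.card_dvd_of_le inf_le_left
    rw [hm, ← Subgroup.relIndex_bot_left L, ← Subgroup.relIndex_mul_relIndex ⊥ P L bot_le hPL,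
      Subgroup.relIndex_bot_left] at hCL
    exact hcop.coprime_dvd_right (Nat.dvd_of_mul_dvd_mul_left Nat.card_pos hCL)
  have hP0 : (Nat.card P : ℂ) ≠ 0 := by simp [Nat.card_pos.ne']
  rw [hm, Nat.cast_mul] at key
  have h4 : IsIntegral ℤ (((((m : ℤ) * ((d : ℤ) - n) : ℤ)) : ℂ) / (Nat.card P : ℂ)) := by
    have : ((((m : ℤ) * ((d : ℤ) - n) : ℤ)) : ℂ) / (Nat.card P : ℂ) = A₁ - A₂ := by
      rw [div_eq_iff hP0]
      apply mul_left_cancel₀ hP0
      push_cast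
      linear_combination key
    rw [this]
    exact hA₁.sub hA₂
  exact (Nat.isCoprime_iff_coprime.2 hmcop).dvd_of_dvd_mul_left (int_dvd_of_isIntegral _ _ Nat.card_pos.ne' h4)

end CfsgLib.OddCoh
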