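import Mathlib
import Cfsg.Agent.FeitCoh.Criterion

/-!
Building coherent sets: the equal-degree case, and adjoining characters by increasing degree.
-/

set_option autoImplicit false

namespace CfsgLib.OddCoh

open CfsgLib.CharBasics CfsgLib.Exceptional

universe u v

variable {X : Type u} [Group X] [Fintype X] {G : Type v} [Group G] [Fintype G]

theorem coherent_equal (S₁ : Finset (X → ℂ)) (hirr : ∀ χ ∈ S₁, Cfsg.IsIrrCharacter X χ) (h2 : 1 < S₁.card)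
    (c : ℕ) (hd : ∀ χ ∈ S₁, χ 1 = (c : ℂ)) (τ : (X → ℂ) → (G → ℂ))
    (hτ : Cfsg.IsLinearIsometryOn (Cfsg.zspanOn (↑S₁ : Set (X → ℂ)) {1}ᶜ) τ)
    (hτ1 : ∀ α ∈ Cfsg.zspanOn (↑S₁ : Set (X → ℂ)) {1}ᶜ, τ α 1 = 0) :
    Cfsg.IsCoherent (↑S₁ : Set (X → ℂ)) {1}ᶜ τ := by
  classical
  obtain ⟨ψ₀, hψ₀, ψ₁, hψ₁, hψne⟩ := Finset.one_lt_card.1 h2
  have hirr' : ∀ i : S₁, Cfsg.IsIrrCharacter X (i : X → ℂ) := fun i => hirr _ i.2
  have hdiff : ∀ i j : S₁, (i : X → ℂ) - j ∈ Cfsg.zspanOn (↑S₁ : Set (X → ℂ)) {1}ᶜ := fun i j =>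
    mem_on_one.2 ⟨sub_mem (S := Submodule ℤ (X → ℂ)) (Submodule.subset_span i.2) (Submodule.subset_span j.2),
      by rw [Pi.sub_apply, hd _ i.2, hd _ j.2, sub_self]⟩
  have hc0 : c ≠ 0 := fun h => apply_one_ne_zero (hirr ψ₀ hψ₀) (by rw [hd ψ₀ hψ₀, h, Nat.cast_zero])
  haveI : Nonempty S₁ := ⟨⟨ψ₀, hψ₀⟩⟩
  obtain ⟨ε, f, hε, hf, hτf⟩ := exceptional_family (fun i : S₁ => (i : X → ℂ)) hirr' Subtype.val_injective
    ⟨⟨ψ₀, hψ₀⟩, ⟨ψ₁, hψ₁⟩, fun h => hψne (congrArg Subtype.val h)⟩ τ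
    (fun i j => hτ.2.2.2 _ (hdiff i j)) (fun i j => hτ1 _ (hdiff i j))
    (fun i j k l => hτ.2.2.1 _ (hdiff i j) _ (hdiff k l))
    (fun i j k => by rw [← hτ.1 _ (hdiff i j) _ (hdiff j k), sub_add_sub_cancel])
  refine coherent_of (OrthoSet.of_irr hirr) (fun _ => c) hd hψ₀ hc0 ⟨ψ₁, hψ₁, hψne.symm⟩ τ hτ
    (fun χ => if h : χ ∈ S₁ then ε • (f ⟨χ, h⟩ : G → ℂ) else 0) ?_ ?_ ?_
  · intro χ hχ
    rw [dif_pos hχ]
    rcases hε with rfl | rfl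
    · rw [one_smul]; exact gen_of_character (isCharacter_of_irr (f _).2)
    · rw [neg_one_smul, ← neg_one_zsmul]; exact gen_zsmul (gen_of_character (isCharacter_of_irr (f _).2)) _
  · intro χ hχ φ hφ
    rw [dif_pos hχ, dif_pos hφ, classInner_smul_left, CfsgLib.Exceptional.classInner_smul_right, ← mul_assoc]
    rw [show ε * (starRingEnd ℂ) ε = 1 by rcases hε with rfl | rfl <;> simp, one_mul]
    by_cases h : χ = φ
    · subst h; rw [classInner_self (f _).2, classInner_self (hirr' ⟨χ, hχ⟩)]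
    · rw [classInner_ne (f _).2 (f _).2 (fun e' => h (congrArg Subtype.val (hf (Subtype.ext e')))),
        classInner_ne (hirr' ⟨χ, hχ⟩) (hirr' ⟨φ, hφ⟩) h]
  · intro χ hχ _
    rw [dif_pos hχ, dif_pos hψ₀, ← smul_sub, ← smul_sub, ← smul_sub]
    rw [hτ.2.1 _ (hdiff ⟨χ, hχ⟩ ⟨ψ₀, hψ₀⟩), hτf ⟨χ, hχ⟩ ⟨ψ₀, hψ₀⟩]

/-- Adjoining characters in the order of their degrees. -/
theorem coherent_extend (S T₀ : Finset (X → ℂ)) (hsub : T₀ ⊆ S) (hirr : ∀ χ ∈ S, Cfsg.IsIrrCharacter X χ)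
    (d : (X → ℂ) → ℕ) (hd : ∀ χ ∈ S, χ 1 = (d χ : ℂ)) (τ : (X → ℂ) → (G → ℂ))
    (hτ : Cfsg.IsLinearIsometryOn (Cfsg.zspanOn (↑S : Set (X → ℂ)) {1}ᶜ) τ)
    (hτ1 : ∀ α ∈ Cfsg.zspanOn (↑S : Set (X → ℂ)) {1}ᶜ, τ α 1 = 0)
    (hcoh : Cfsg.IsCoherent (↑T₀ : Set (X → ℂ)) {1}ᶜ τ) (ψ : X → ℂ) (hψ : ψ ∈ T₀)
    [DecidableEq (X → ℂ)]
    (hstep : ∀ χ ∈ S, χ ∉ T₀ → d ψ ∣ d χ ∧
      2 * d ψ * d χ < ∑ ξ ∈ S.filter (fun ξ => ξ ∈ T₀ ∨ d ξ < d χ), d ξ ^ 2) :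
    Cfsg.IsCoherent (↑S : Set (X → ℂ)) {1}ᶜ τ := by
  classical
  suffices hmain : ∀ (n : ℕ) (T : Finset (X → ℂ)), T.card = n → T₀ ⊆ T → T ⊆ S →
      (∀ η ∈ T, η ∉ T₀ → ∀ ξ ∈ S, d ξ < d η → ξ ∈ T) → Cfsg.IsCoherent (↑T : Set (X → ℂ)) {1}ᶜ τ from
    hmain S.card S rfl hsub (Finset.Subset.refl _) (fun _ _ _ ξ hξ _ => hξ)
  intro n
  induction n with
  | zero =>
    intro T hT hT1 _ _
    exact absurd (hT1 hψ) (by rw [Finset.card_eq_zero.1 hT]; simp)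
  | succ n ih =>
    intro T hT hT1 hTS hdown
    by_cases hTeq : T ⊆ T₀
    · rwa [Finset.Subset.antisymm hTeq hT1]
    obtain ⟨ξ₀, hξ₀, hξ₀'⟩ := Finset.not_subset.1 hTeq
    obtain ⟨χ, hχ, hmax⟩ := Finset.exists_max_image (T \ T₀) d ⟨ξ₀, Finset.mem_sdiff.2 ⟨hξ₀, hξ₀'⟩⟩
    obtain ⟨hχT, hχ1⟩ := Finset.mem_sdiff.1 hχ
    have hT' : (T.erase χ).card = n := by rw [Finset.card_erase_of_mem hχT, hT, Nat.add_sub_cancel]
    have hsub1 : T₀ ⊆ T.erase χ := fun x hx => Finset.mem_erase.2 ⟨fun h => hχ1 (h ▸ hx), hT1 hx⟩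
    have hrec := ih (T.erase χ) hT' hsub1 ((Finset.erase_subset _ _).trans hTS) (fun η hη hη1 ξ hξ hlt => by
      refine Finset.mem_erase.2 ⟨fun h => ?_, hdown η (Finset.mem_of_mem_erase hη) hη1 ξ hξ hlt⟩
      subst h
      exact absurd hlt (not_lt.2 (hmax η (Finset.mem_sdiff.2 ⟨Finset.mem_of_mem_erase hη, hη1⟩))))
    have hins : insert χ (T.erase χ) = T := Finset.insert_erase hχT
    have hmono : (↑T : Set (X → ℂ)) ⊆ ↑S := Finset.coe_subset.2 hTS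
    obtain ⟨hdvd, hlt⟩ := hstep χ (hTS hχT) hχ1
    have := CfsgLib.FeitCoh.coherent_insert (T.erase χ) χ
      (fun ξ h => hirr ξ (hTS (Finset.mem_of_mem_erase h))) (hirr χ (hTS hχT)) (Finset.notMem_erase _ _) d
      (fun ξ h => hd ξ (hTS (hins ▸ h))) τ
      (by rw [hins]; exact isometry_mono hτ (zspanOn_mono hmono _))
      (by rw [hins]; exact fun α hα => hτ1 α (zspanOn_mono hmono _ hα))
      hrec ψ (hsub1 hψ) hdvd
      (hlt.trans_le (Finset.sum_le_sum_of_subset fun ξ hξ => by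
        obtain ⟨h1, h2⟩ := Finset.mem_filter.1 hξ
        rcases h2 with h2 | h2
        · exact hsub1 h2
        · exact Finset.mem_erase.2 ⟨fun h => by rw [h] at h2; omega, hdown χ hχT hχ1 ξ h1 h2⟩))
    rwa [hins] at this

/-- A coherent pair of characters of equal degree can be turned around. -/
theorem swap_pair (Y : Finset (X → ℂ)) (hirr : ∀ χ ∈ Y, Cfsg.IsIrrCharacter X χ) (h2 : Y.card = 2)
    {a b : X → ℂ} (ha : a ∈ Y) (hb : b ∈ Y) (hab : a ≠ b) (hdeg : a 1 = b 1)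
    (σ τ : (X → ℂ) → (G → ℂ)) (hσ : Cfsg.IsLinearIsometryOn (Cfsg.zspan (↑Y : Set (X → ℂ))) σ)
    (hag : ∀ θ ∈ Cfsg.zspanOn (↑Y : Set (X → ℂ)) {1}ᶜ, σ θ = τ θ) :
    ∃ σ' : (X → ℂ) → (G → ℂ), Cfsg.IsLinearIsometryOn (Cfsg.zspan (↑Y : Set (X → ℂ))) σ' ∧
      (∀ θ ∈ Cfsg.zspanOn (↑Y : Set (X → ℂ)) {1}ᶜ, σ' θ = τ θ) ∧ σ' a = -σ b := by
  classical
  have hY : Y = {a, b} := (Finset.eq_of_subset_of_card_le (Finset.insert_subset ha (Finset.singleton_subset_iff.2 hb))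
    (by rw [h2, Finset.card_pair hab])).symm
  have horth : OrthoSet (↑Y : Set (X → ℂ)) := OrthoSet.of_irr hirr
  have hσ' : Cfsg.IsLinearIsometryOn ((Submodule.span ℤ (↑Y : Set (X → ℂ)) : Submodule ℤ (X → ℂ)) : Set (X → ℂ)) σ := hσ
  set v : (X → ℂ) → (G → ℂ) := fun χ => if χ = a then -σ b else -σ a with hv
  have hmem : ∀ χ ∈ Y, σ χ = σ a ∨ σ χ = σ b := fun χ h => by
    rw [hY] at h
    rcases Finset.mem_insert.1 h with rfl | h
    · exact Or.inl rfl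
    · exact Or.inr (by rw [Finset.mem_singleton.1 h])
  have hinn : ∀ χ ∈ Y, ∀ φ ∈ Y, Cfsg.classInner (σ χ) (σ φ) = Cfsg.classInner χ φ := fun χ h φ h' =>
    hσ.2.2.1 χ (Submodule.subset_span h) φ (Submodule.subset_span h')
  have hneg : ∀ χ ∈ Y, Cfsg.IsGeneralizedCharacter G (-σ χ) := fun χ h => by
    rw [← zero_sub]; exact gen_sub gen_zero (hσ.2.2.2 χ (Submodule.subset_span h))
  have hva : v a = -σ b := if_pos rfl
  have hvb : v b = -σ a := if_neg hab.symm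
  have hself : ∀ χ ∈ Y, Cfsg.classInner χ χ = 1 := fun χ h => classInner_self (hirr χ h)
  refine ⟨extLin Y v, extLin_isometry horth v (fun χ h => ?_) (fun χ h φ h' => ?_), fun θ hθ => ?_, ?_⟩
  · simp only [hv]; split_ifs
    · exact hneg b hb
    · exact hneg a ha
  · rw [hY] at h h'
    simp only [Finset.mem_insert, Finset.mem_singleton] at h h'
    rcases h with rfl | rfl <;> rcases h' with rfl | rfl <;>
      simp only [hva, hvb, classInner_neg_left, classInner_neg_right, neg_neg, hinn _ ha _ ha, hinn _ ha _ hb,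
        hinn _ hb _ ha, hinn _ hb _ hb, hself _ ha, hself _ hb, classInner_ne (hirr _ ha) (hirr _ hb) hab,
        classInner_ne (hirr _ hb) (hirr _ ha) hab.symm]
  · obtain ⟨hspan, h1⟩ := mem_on_one.1 hθ
    rw [← hag θ hθ]
    obtain ⟨c, hc⟩ := exists_coeff hspan
    subst hc
    have hvs : extLin Y v (∑ φ ∈ Y, c φ • φ) = ∑ φ ∈ Y, c φ • v φ := extLin_combination horth v c
    rw [hvs, CfsgLib.Exceptional.iso_sum hσ' Y _ (fun φ h => Submodule.smul_mem _ _ (Submodule.subset_span h)),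
      Finset.sum_congr rfl (fun φ (h : φ ∈ Y) => iso_zsmul hσ' (Submodule.subset_span h) (c φ))]
    simp only [hY, Finset.sum_pair hab, hva, hvb]
    simp only [hY, Finset.sum_pair hab, Pi.add_apply, ← Int.cast_smul_eq_zsmul ℂ, Pi.smul_apply, smul_eq_mul, ← hdeg] at h1
    have ha1 : a 1 ≠ 0 := apply_one_ne_zero (hirr a ha)
    have h3 : ((c a + c b : ℤ) : ℂ) * a 1 = 0 := by push_cast; linear_combination h1
    have h4 : c b = -c a := by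
      have := Int.cast_eq_zero.1 ((mul_eq_zero.1 h3).resolve_right ha1)
      omega
    rw [h4]
    module
  · rw [extLin_apply horth v ha, hva]

end CfsgLib.OddCoh
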